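import Cfsg.Agent.Lib.Quartet.Data
import Cfsg.Prelude.Def_SporadicCombinatorics

/-!
# The quartets of the dodecad with mask `D`

`qOf l` is the family of sets with masks in the list `l`; the quartets of the dodecad are exactly
the families `qOf l` for `l` in the list `QL`.  Through two disjoint triples uniting to a hexad
passes exactly one quartet.
-/

set_option autoImplicit false

namespace Cfsg.Agent.Lib.Quartet.Basic

open Cfsg Cfsg.Agent.Lib.Golay.Core Cfsg.Agent.Lib.Golay.Perm Cfsg.Agent.Lib.Golay.Basic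
  Cfsg.Agent.Lib.Quartet.Data
open scoped Pointwise

local notation "sO" => Cfsg.Agent.Lib.Golay.Core.setOf

/-- The family of sets with masks in the list `l`. -/
noncomputable def qOf (l : List ℕ) : Finset (Finset GolayPt) := (l.map fun a => sO a).toFinset

theorem mem_qOf {l : List ℕ} {t : Finset GolayPt} : t ∈ qOf l ↔ ∃ a ∈ l, sO a = t := by
  simp [qOf]

theorem mask_mem_qOf {l : List ℕ} {a : ℕ} (h : a ∈ l) : sO a ∈ qOf l := mem_qOf.mpr ⟨a, h, rfl⟩

theorem D_lt : D < 2 ^ 24 := by decide +kernel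

theorem D_mem : sO D ∈ dodecads :=
  (setOf_mem_dodecads_iff D_lt).mpr ⟨by decide +kernel, by decide +kernel⟩

theorem setOf_land (a b : ℕ) : sO (Nat.land a b) = sO a ∩ sO b := setOf_inter a b

theorem setOf_lor (a b : ℕ) : sO (Nat.lor a b) = sO a ∪ sO b := setOf_union a b

/-- Triples of the dodecad. -/
theorem exists_tri {t : Finset GolayPt} (h3 : t.card = 3) (hs : t ⊆ sO D) :
    ∃ a ∈ Tri, t = sO a := by
  classical
  obtain ⟨x, y, z, hxy, hxz, hyz, rfl⟩ := Finset.card_eq_three.mp h3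
  have hx : idx x ∈ pts := pts_spec _ (idx_lt x) (mem_setOf.mp (hs (by simp)))
  have hy : idx y ∈ pts := pts_spec _ (idx_lt y) (mem_setOf.mp (hs (by simp)))
  have hz : idx z ∈ pts := pts_spec _ (idx_lt z) (mem_setOf.mp (hs (by simp)))
  have h1 := List.all_eq_true.mp (List.all_eq_true.mp (List.all_eq_true.mp triAll _ hx) _ hy) _ hz
  simp only [Bool.or_eq_true] at h1
  have hne : ∀ {p q : GolayPt}, p ≠ q → Nat.beq (idx p) (idx q) ≠ true := by
    intro p q hpq hb
    exact hpq (idx_injective (Nat.eq_of_beq_eq_true hb))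
  rcases h1 with ((h1 | h1) | h1) | h1
  · exact absurd h1 (hne hxy)
  · exact absurd h1 (hne hxz)
  · exact absurd h1 (hne hyz)
  · refine ⟨_, memB_iff.mp h1, ?_⟩
    ext p
    simp only [Finset.mem_insert, Finset.mem_singleton, mem_setOf, triMask]
    have e : ∀ i : ℕ, Nat.shiftLeft 1 i = 2 ^ i := fun i => Nat.one_shiftLeft i
    rw [e, e, e]
    show _ ↔ ((2 ^ idx x ||| 2 ^ idx y) ||| 2 ^ idx z).testBit (idx p) = true
    simp only [Nat.testBit_or, Nat.testBit_two_pow, Bool.or_eq_true, decide_eq_true_eq]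
    constructor
    · rintro (rfl | rfl | rfl)
      · exact Or.inl (Or.inl rfl)
      · exact Or.inl (Or.inr rfl)
      · exact Or.inr rfl
    · rintro ((h | h) | h)
      · exact Or.inl (idx_injective h.symm)
      · exact Or.inr (Or.inl (idx_injective h.symm))
      · exact Or.inr (Or.inr (idx_injective h.symm))

theorem Tri_lt {a : ℕ} (h : a ∈ Tri) : a < 2 ^ 24 := (Tri_spec a h).1

theorem lor_lt {a b : ℕ} (ha : a < 2 ^ 24) (hb : b < 2 ^ 24) : Nat.lor a b < 2 ^ 24 :=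
  Nat.or_lt_two_pow ha hb

/-- Hexads of the dodecad pass the test. -/
theorem hex_of_mem {m : ℕ} (hm : m < 2 ^ 24) (h : sO m ∈ hexadsOn (sO D)) :
    isHex m = true ∧ pop m = 6 := by
  obtain ⟨h6, o, ho, hoi⟩ := h
  obtain ⟨k, hk, hk8, rfl⟩ := mem_octads_iff.mp ho
  have h1 : sO (Nat.land (code k) D) = sO m := by rw [setOf_land, hoi]
  have h2 : Nat.land (code k) D = m := by
    apply eq_of_setOf_eq _ hm h1
    exact Nat.and_lt_two_pow _ D_lt
  have h3 : pop m = 6 := by rw [← card_setOf, h6]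
  refine ⟨?_, h3⟩
  have h4 := allUpTo_iff.mp hexCode k hk
  rw [h2] at h4
  simp only [Bool.or_eq_true, Bool.not_eq_true'] at h4
  rcases h4 with (h4 | h4) | h4
  · rw [hk8] at h4
    exact absurd h4 (by decide)
  · rw [h3] at h4
    exact absurd h4 (by decide)
  · exact h4

/-- Test for a pair of triples with a hexad as union. -/
theorem hex6_of_mem {a b : ℕ} (ha : a ∈ Tri) (hb : b ∈ Tri) (h : sO a ∪ sO b ∈ hexadsOn (sO D)) :
    hex6 a b = true := by
  rw [← setOf_lor] at h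
  obtain ⟨h1, h2⟩ := hex_of_mem (lor_lt (Tri_lt ha) (Tri_lt hb)) h
  simp only [hex6, h1, h2, Bool.and_eq_true, true_and]
  exact Nat.beq_refl _

/-- Through a pair of triples with a hexad as union there is a list containing all compatible
triples. -/
theorem exists_list {a b : ℕ} (ha : a ∈ Tri) (hb : b ∈ Tri) (h : hex6 a b = true) :
    ∃ l ∈ QL, a ∈ l ∧ b ∈ l ∧ ∀ c ∈ Tri, c ≠ a → c ≠ b → hex6 a c = true → hex6 b c = true → c ∈ l := by
  have h1 := List.all_eq_true.mp (List.all_eq_true.mp keyAll a ha) b hb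
  simp only [keyOK, h, Bool.not_true, Bool.false_or] at h1
  obtain ⟨l, hl, h2⟩ := List.any_eq_true.mp h1
  simp only [Bool.and_eq_true] at h2
  obtain ⟨⟨h3, h4⟩, h5⟩ := h2
  refine ⟨l, hl, memB_iff.mp h3, memB_iff.mp h4, fun c hc hca hcb hac hbc => ?_⟩
  have h6 := List.all_eq_true.mp h5 c hc
  simp only [Bool.or_eq_true, hac, hbc, Bool.not_true, Bool.false_eq_true, or_false] at h6
  rcases h6 with (h6 | h6) | h6
  · exact absurd (Nat.eq_of_beq_eq_true h6) hca
  · exact absurd (Nat.eq_of_beq_eq_true h6) hcb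
  · exact memB_iff.mp h6

theorem card_qOf {l : List ℕ} (hl : l ∈ QL) : (qOf l).card = 4 := by
  obtain ⟨h1, h2, h3⟩ := QL_spec l hl
  rw [qOf, List.toFinset_card_of_nodup, List.length_map, h1]
  refine List.Nodup.map_on ?_ h2
  intro a ha b hb hab
  exact eq_of_setOf_eq (Tri_lt (h3 a ha)) (Tri_lt (h3 b hb)) hab

/-- The lists of `QL` give quartets. -/
theorem qOf_mem {l : List ℕ} (hl : l ∈ QL) : qOf l ∈ quartets (sO D) := by
  obtain ⟨h1, h2, h3⟩ := QL_spec l hl
  refine ⟨card_qOf hl, ?_, ?_⟩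
  · intro t ht
    obtain ⟨a, ha, rfl⟩ := mem_qOf.mp ht
    obtain ⟨-, h4, h5⟩ := Tri_spec a (h3 a ha)
    refine ⟨by rw [card_setOf, h4], ?_⟩
    rw [← h5, setOf_land]
    exact Finset.inter_subset_right
  · intro t ht u hu htu
    obtain ⟨a, ha, rfl⟩ := mem_qOf.mp ht
    obtain ⟨b, hb, rfl⟩ := mem_qOf.mp hu
    have hab : a ≠ b := fun h => htu (by rw [h])
    obtain ⟨e, he, he1⟩ := QL_hex l hl a ha b hb hab
    obtain ⟨h4, h5, h6, h7, h8⟩ := HexO_spec e he
    rw [← setOf_lor, ← he1]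
    refine ⟨by rw [card_setOf, h8], sO e.2, (setOf_mem_octads_iff h4).mpr ⟨h5, h6⟩, ?_⟩
    rw [← setOf_land, h7]

/-- Two-step description of quartets. -/
theorem eq_qOf_of_mem {Q : Finset (Finset GolayPt)} (hQ : Q ∈ quartets (sO D)) {a b : ℕ}
    (ha : a ∈ Tri) (hb : b ∈ Tri) (hat : sO a ∈ Q) (hbt : sO b ∈ Q) (hab : a ≠ b) :
    ∃ l ∈ QL, a ∈ l ∧ b ∈ l ∧ Q = qOf l := by
  obtain ⟨hc, hsub, hun⟩ := hQ
  have hne : sO a ≠ sO b := fun h => hab (eq_of_setOf_eq (Tri_lt ha) (Tri_lt hb) h)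
  obtain ⟨l, hl, hal, hbl, hall⟩ := exists_list ha hb (hex6_of_mem ha hb (hun _ hat _ hbt hne))
  refine ⟨l, hl, hal, hbl, ?_⟩
  apply Finset.eq_of_subset_of_card_le
  · intro r hr
    obtain ⟨h3, hrs⟩ := hsub r hr
    obtain ⟨c, hcT, rfl⟩ := exists_tri h3 hrs
    by_cases hca : c = a
    · subst hca
      exact mask_mem_qOf hal
    by_cases hcb : c = b
    · subst hcb
      exact mask_mem_qOf hbl
    have h1 : sO c ≠ sO a := fun h => hca (eq_of_setOf_eq (Tri_lt hcT) (Tri_lt ha) h)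
    have h2 : sO c ≠ sO b := fun h => hcb (eq_of_setOf_eq (Tri_lt hcT) (Tri_lt hb) h)
    have h4 := hex6_of_mem ha hcT (hun _ hat _ hr h1.symm)
    have h5 := hex6_of_mem hb hcT (hun _ hbt _ hr h2.symm)
    exact mask_mem_qOf (hall c hcT hca hcb h4 h5)
  · rw [card_qOf hl, hc]

/-- **The quartets of the dodecad with mask `D`.** -/
theorem mem_quartets_iff {Q : Finset (Finset GolayPt)} :
    Q ∈ quartets (sO D) ↔ ∃ l ∈ QL, Q = qOf l := by
  constructor
  · intro hQ
    have hc : 1 < Q.card := by rw [hQ.1]; norm_num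
    obtain ⟨t, ht, u, hu, htu⟩ := Finset.one_lt_card.mp hc
    obtain ⟨h1, h2⟩ := hQ.2.1 t ht
    obtain ⟨h3, h4⟩ := hQ.2.1 u hu
    obtain ⟨a, ha, rfl⟩ := exists_tri h1 h2
    obtain ⟨b, hb, rfl⟩ := exists_tri h3 h4
    have hab : a ≠ b := fun h => htu (by rw [h])
    obtain ⟨l, hl, -, -, h⟩ := eq_qOf_of_mem hQ ha hb ht hu hab
    exact ⟨l, hl, h⟩
  · rintro ⟨l, hl, rfl⟩
    exact qOf_mem hl

theorem qOf_inj {l l' : List ℕ} (hl : l ∈ QL) (hl' : l' ∈ QL) (h : qOf l = qOf l') : l = l' := by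
  have h1 := List.all_eq_true.mp (List.all_eq_true.mp QL_inj l hl) l' hl'
  simp only [decide_eq_true_eq] at h1
  apply h1
  rw [List.all_eq_true]
  intro a ha
  have h2 : sO a ∈ qOf l' := by
    rw [← h]
    exact mask_mem_qOf ha
  obtain ⟨b, hb, hab⟩ := mem_qOf.mp h2
  obtain ⟨-, -, h3⟩ := QL_spec l hl
  obtain ⟨-, -, h4⟩ := QL_spec l' hl'
  have := eq_of_setOf_eq (Tri_lt (h4 b hb)) (Tri_lt (h3 a ha)) hab
  rw [memB_iff, ← this]
  exact hb

/-- The number of quartets. -/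
theorem ncard_quartets : (quartets (sO D)).ncard = 220 := by
  have h : quartets (sO D) = qOf '' {l | l ∈ QL} := by
    ext Q
    rw [mem_quartets_iff]
    simp only [Set.mem_image, Set.mem_ofPred_eq]
    constructor
    · rintro ⟨l, hl, rfl⟩
      exact ⟨l, hl, rfl⟩
    · rintro ⟨l, hl, rfl⟩
      exact ⟨l, hl, rfl⟩
  have hinj : Set.InjOn qOf {l | l ∈ QL} := fun l hl l' hl' e => qOf_inj hl hl' e
  rw [h, hinj.ncard_image]
  have : ({l | l ∈ QL} : Set (List ℕ)) = ↑QL.toFinset := by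
    ext l
    simp
  rw [this, Set.ncard_coe_finset, List.toFinset_card_of_nodup QL_nodup, QL_len]

end Cfsg.Agent.Lib.Quartet.Basic
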