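import Cfsg.Agent.Lib.Quartet.Trans
import Cfsg.Agent.Lib.Quartet.Wit

/-!
# The orbits of a quartet stabiliser on the quartets of a dodecad
-/

set_option autoImplicit false

namespace Cfsg.Agent.Lib.Quartet.Orbits

open Cfsg Cfsg.Agent.Lib.Golay.Core Cfsg.Agent.Lib.Golay.Perm Cfsg.Agent.Lib.Golay.Basic
  Cfsg.Agent.Lib.Golay.Dodecad Cfsg.Agent.Lib.Golay.M24 Cfsg.Agent.Lib.Quartet.Data
  Cfsg.Agent.Lib.Quartet.Basic Cfsg.Agent.Lib.Quartet.Trans Cfsg.Agent.Lib.Quartet.Wit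
open scoped Pointwise

local notation "sO" => Cfsg.Agent.Lib.Golay.Core.setOf

/-- The stabiliser of a dodecad and a family. -/
abbrev K (d : Finset GolayPt) (Q : Finset (Finset GolayPt)) : Subgroup ↥M24 :=
  MulAction.stabilizer M24 d ⊓ MulAction.stabilizer M24 Q

theorem mem_K_iff {d : Finset GolayPt} {Q : Finset (Finset GolayPt)} {g : ↥M24} :
    g ∈ K d Q ↔ (g : Equiv.Perm GolayPt) • d = d ∧ (g : Equiv.Perm GolayPt) • Q = Q := by
  simp only [K, Subgroup.mem_inf, MulAction.mem_stabilizer_iff]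
  rfl

/-- The orbit described inside the permutation group. -/
def Orb (d : Finset GolayPt) (Q X : Finset (Finset GolayPt)) : Set (Finset (Finset GolayPt)) :=
  {y | ∃ k ∈ M24, k • d = d ∧ k • Q = Q ∧ k • X = y}

theorem orbit_eq (d : Finset GolayPt) (Q X : Finset (Finset GolayPt)) :
    MulAction.orbit ↥(K d Q) X = Orb d Q X := by
  ext y
  constructor
  · rintro ⟨g, rfl⟩
    obtain ⟨h1, h2⟩ := mem_K_iff.mp g.2
    exact ⟨(g : ↥M24), (g : ↥M24).2, h1, h2, rfl⟩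
  · rintro ⟨k, hk, h1, h2, rfl⟩
    exact ⟨⟨⟨k, hk⟩, mem_K_iff.mpr ⟨h1, h2⟩⟩, rfl⟩

/-- An invariant of a pair of families. -/
noncomputable def sigS (Q X : Finset (Finset GolayPt)) : ℕ := ∑ t ∈ Q, ∑ u ∈ X, wt (t ∩ u).card

theorem sigS_smul (τ : Equiv.Perm GolayPt) (Q X : Finset (Finset GolayPt)) :
    sigS (τ • Q) (τ • X) = sigS Q X := by
  unfold sigS
  rw [← Finset.image_smul, ← Finset.image_smul,
    Finset.sum_image (fun a _ b _ h => MulAction.injective τ h)]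
  refine Finset.sum_congr rfl fun t _ => ?_
  rw [Finset.sum_image (fun a _ b _ h => MulAction.injective τ h)]
  refine Finset.sum_congr rfl fun u _ => ?_
  rw [← Finset.smul_finset_inter, Finset.card_smul_finset]

theorem nodup_map {l : List ℕ} (hl : l ∈ QL) : (l.map fun a => sO a).Nodup := by
  obtain ⟨-, h2, h3⟩ := QL_spec l hl
  refine List.Nodup.map_on ?_ h2
  intro a ha b hb hab
  exact eq_of_setOf_eq (Tri_lt (h3 a ha)) (Tri_lt (h3 b hb)) hab

theorem sigS_qOf {l m : List ℕ} (hl : l ∈ QL) (hm : m ∈ QL) :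
    sigS (qOf l) (qOf m) = (l.map fun a => (m.map fun b => wt (pop (Nat.land a b))).sum).sum := by
  unfold sigS qOf
  rw [List.sum_toFinset _ (nodup_map hl), List.map_map]
  congr 1
  apply List.map_congr_left
  intro a _
  simp only [Function.comp]
  rw [List.sum_toFinset _ (nodup_map hm), List.map_map]
  congr 1
  apply List.map_congr_left
  intro b _
  simp only [Function.comp]
  rw [← setOf_land, card_setOf]

theorem sigS_L0 {m : List ℕ} (hm : m ∈ QL) : sigS (qOf L0) (qOf m) = sig m :=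
  sigS_qOf L0_mem hm

/-- Base case of the orbit description. -/
theorem base_orbit {C : List (ℕ × List ℕ)} {X : List ℕ} (hX : X ∈ QL)
    (hC : ∀ e ∈ C, checkAut e.1 = true ∧ mapMask e.1 D = D ∧ (∀ a ∈ L0, mapMask e.1 a ∈ L0) ∧
      (∀ a ∈ X, mapMask e.1 a ∈ e.2) ∧ e.2 ∈ QL)
    (hcl : ∀ l ∈ QL, sig l = sig X → l ∈ C.map Prod.snd) :
    Orb (sO D) (qOf L0) (qOf X) = qOf '' {l | l ∈ C.map Prod.snd} := by
  ext y
  simp only [Set.mem_image, Set.mem_ofPred_eq]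
  constructor
  · rintro ⟨k, hk, h1, h2, rfl⟩
    have h3 : k • qOf X ∈ quartets (sO D) := by
      have := quartets_smul_of hk (qOf_mem hX)
      rwa [h1] at this
    obtain ⟨l, hl, hle⟩ := mem_quartets_iff.mp h3
    refine ⟨l, hcl l hl ?_, hle.symm⟩
    rw [← sigS_L0 hl, ← sigS_L0 hX, ← hle, ← sigS_smul k (qOf L0) (qOf X), h2]
  · rintro ⟨l, hl, rfl⟩
    obtain ⟨e, he, rfl⟩ := List.mem_map.mp hl
    obtain ⟨h1, h2, h3, h4, h5⟩ := hC e he
    have hv := checkAut_valid h1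
    refine ⟨g e.1, g_mem_M24 h1, ?_, ?_, ?_⟩
    · rw [smul_setOf hv, h2]
    · exact smul_qOf_eq hv L0_mem L0_mem h3
    · exact smul_qOf_eq hv hX h5 h4

theorem ncard_image_qOf {L : List (List ℕ)} (h : ∀ l ∈ L, l ∈ QL) (hn : L.Nodup) :
    (qOf '' {l | l ∈ L}).ncard = L.length := by
  have hinj : Set.InjOn qOf {l | l ∈ L} := fun l hl l' hl' e => qOf_inj (h l hl) (h l' hl') e
  rw [hinj.ncard_image]
  have : ({l | l ∈ L} : Set (List ℕ)) = ↑L.toFinset := by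
    ext l
    simp
  rw [this, Set.ncard_coe_finset, List.toFinset_card_of_nodup hn]

/-- Every quartet of `d` can be moved to the base quartet while moving `d` to the base dodecad. -/
theorem exists_to_base {d : Finset GolayPt} (hd : d ∈ dodecads) {Q : Finset (Finset GolayPt)}
    (hQ : Q ∈ quartets d) : ∃ τ ∈ M24, τ • d = sO D ∧ τ • Q = qOf L0 := by
  obtain ⟨τ, hτ, hτd⟩ := exists_to_D hd
  have h1 : τ • Q ∈ quartets (sO D) := by
    rw [← hτd]
    exact quartets_smul_of hτ hQ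
  obtain ⟨l, hl, hle⟩ := mem_quartets_iff.mp h1
  have h2 : l ∈ WT.map Prod.snd := by rw [WT_map]; exact hl
  obtain ⟨e, he, rfl⟩ := List.mem_map.mp h2
  obtain ⟨h3, h4, h5⟩ := WT_spec e he
  have hv := checkAut_valid h3
  have h6 : g e.1 • qOf L0 = qOf e.2 := smul_qOf_eq hv L0_mem hl h5
  have h7 : g e.1 • sO D = sO D := by rw [smul_setOf hv, h4]
  refine ⟨(g e.1)⁻¹ * τ, M24.mul_mem (M24.inv_mem (g_mem_M24 h3)) hτ, ?_, ?_⟩
  · rw [mul_smul, hτd, inv_smul_eq_iff, h7]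
  · rw [mul_smul, hle, inv_smul_eq_iff, h6]

/-- Transport of the orbit. -/
theorem Orb_transport {τ : Equiv.Perm GolayPt} (hτ : τ ∈ M24) {d : Finset GolayPt}
    {d' : Finset GolayPt} {Q Q' : Finset (Finset GolayPt)} (hd : τ • d = d') (hQ : τ • Q = Q')
    (X : Finset (Finset GolayPt)) :
    Orb d Q (τ⁻¹ • X) = (fun Y => τ⁻¹ • Y) '' Orb d' Q' X := by
  subst hd hQ
  ext y
  simp only [Set.mem_image]
  constructor
  · rintro ⟨k, hk, h1, h2, rfl⟩
    refine ⟨τ • k • τ⁻¹ • X, ⟨τ * k * τ⁻¹, M24.mul_mem (M24.mul_mem hτ hk) (M24.inv_mem hτ), ?_, ?_, ?_⟩, ?_⟩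
    · simp only [mul_smul, inv_smul_smul, h1]
    · simp only [mul_smul, inv_smul_smul, h2]
    · simp only [mul_smul]
    · simp
  · rintro ⟨Y, ⟨k, hk, h1, h2, rfl⟩, rfl⟩
    refine ⟨τ⁻¹ * k * τ, M24.mul_mem (M24.mul_mem (M24.inv_mem hτ) hk) hτ, ?_, ?_, ?_⟩
    · simp only [mul_smul, h1, inv_smul_smul]
    · simp only [mul_smul, h2, inv_smul_smul]
    · simp only [mul_smul, smul_inv_smul]

theorem ncard_transport (τ : Equiv.Perm GolayPt) (A : Set (Finset (Finset GolayPt))) :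
    ((fun Y => τ⁻¹ • Y) '' A).ncard = A.ncard :=
  Set.ncard_image_of_injective _ (MulAction.injective τ⁻¹)

theorem C1_cl : ∀ l ∈ QL, sig l = sig X1 → l ∈ C1.map Prod.snd := by
  intro l hl hs
  rw [sig_X1] at hs
  rcases classes l hl with ⟨h, _⟩ | ⟨h, h'⟩ | ⟨h, _⟩ | ⟨h, _⟩ | ⟨h, _⟩
  · omega
  · exact h'
  · omega
  · omega
  · omega

theorem C2_cl : ∀ l ∈ QL, sig l = sig X2 → l ∈ C2.map Prod.snd := by
  intro l hl hs
  rw [sig_X2] at hs
  rcases classes l hl with ⟨h, _⟩ | ⟨h, _⟩ | ⟨h, h'⟩ | ⟨h, _⟩ | ⟨h, _⟩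
  · omega
  · omega
  · exact h'
  · omega
  · omega

theorem C3_cl : ∀ l ∈ QL, sig l = sig X3 → l ∈ C3.map Prod.snd := by
  intro l hl hs
  rw [sig_X3] at hs
  rcases classes l hl with ⟨h, _⟩ | ⟨h, _⟩ | ⟨h, _⟩ | ⟨h, h'⟩ | ⟨h, _⟩
  · omega
  · omega
  · omega
  · exact h'
  · omega

theorem C4_cl : ∀ l ∈ QL, sig l = sig X4 → l ∈ C4.map Prod.snd := by
  intro l hl hs
  rw [sig_X4] at hs
  rcases classes l hl with ⟨h, _⟩ | ⟨h, _⟩ | ⟨h, _⟩ | ⟨h, _⟩ | ⟨h, h'⟩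
  · omega
  · omega
  · omega
  · omega
  · exact h'

theorem base_O1 : Orb (sO D) (qOf L0) (qOf X1) = qOf '' {l | l ∈ C1.map Prod.snd} :=
  base_orbit X1_mem C1_spec C1_cl

theorem base_O2 : Orb (sO D) (qOf L0) (qOf X2) = qOf '' {l | l ∈ C2.map Prod.snd} :=
  base_orbit X2_mem C2_spec C2_cl

theorem base_O3 : Orb (sO D) (qOf L0) (qOf X3) = qOf '' {l | l ∈ C3.map Prod.snd} :=
  base_orbit X3_mem C3_spec C3_cl

theorem base_O4 : Orb (sO D) (qOf L0) (qOf X4) = qOf '' {l | l ∈ C4.map Prod.snd} :=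
  base_orbit X4_mem C4_spec C4_cl

theorem ncard_O {C : List (ℕ × List ℕ)}
    (hC : ∀ e ∈ C, e.2 ∈ QL) (hn : (C.map Prod.snd).Nodup) :
    (qOf '' {l | l ∈ C.map Prod.snd}).ncard = C.length := by
  rw [ncard_image_qOf _ hn, List.length_map]
  intro l hl
  obtain ⟨e, he, rfl⟩ := List.mem_map.mp hl
  exact hC e he

/-- The orbit decomposition at the base. -/
theorem base_union {y : Finset (Finset GolayPt)} (hy : y ∈ quartets (sO D)) :
    y = qOf L0 ∨ y ∈ Orb (sO D) (qOf L0) (qOf X1) ∨ y ∈ Orb (sO D) (qOf L0) (qOf X2) ∨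
      y ∈ Orb (sO D) (qOf L0) (qOf X3) ∨ y ∈ Orb (sO D) (qOf L0) (qOf X4) := by
  rw [base_O1, base_O2, base_O3, base_O4]
  obtain ⟨l, hl, rfl⟩ := mem_quartets_iff.mp hy
  rcases classes l hl with ⟨_, h⟩ | ⟨_, h⟩ | ⟨_, h⟩ | ⟨_, h⟩ | ⟨_, h⟩
  · exact Or.inl (by rw [h])
  · exact Or.inr (Or.inl ⟨l, h, rfl⟩)
  · exact Or.inr (Or.inr (Or.inl ⟨l, h, rfl⟩))
  · exact Or.inr (Or.inr (Or.inr (Or.inl ⟨l, h, rfl⟩)))
  · exact Or.inr (Or.inr (Or.inr (Or.inr ⟨l, h, rfl⟩)))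

theorem Orb_mem_quartets {d : Finset GolayPt} {Q X : Finset (Finset GolayPt)}
    (hX : X ∈ quartets d) {y : Finset (Finset GolayPt)} (hy : y ∈ Orb d Q X) : y ∈ quartets d := by
  obtain ⟨k, hk, h1, -, rfl⟩ := hy
  have := quartets_smul_of hk hX
  rwa [h1] at this

/-- **The orbits.** -/
theorem orbits (d : Finset GolayPt) (hd : d ∈ dodecads) (Q : Finset (Finset GolayPt))
    (hQ : Q ∈ quartets d) :
    ∃ X₁ ∈ quartets d, ∃ X₂ ∈ quartets d, ∃ X₃ ∈ quartets d, ∃ X₄ ∈ quartets d,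
      (MulAction.orbit ↥(K d Q) X₁).ncard = 12 ∧ (MulAction.orbit ↥(K d Q) X₂).ncard = 27 ∧
      (MulAction.orbit ↥(K d Q) X₃).ncard = 72 ∧ (MulAction.orbit ↥(K d Q) X₄).ncard = 108 ∧
      quartets d = {Q} ∪ MulAction.orbit ↥(K d Q) X₁ ∪ MulAction.orbit ↥(K d Q) X₂ ∪
        MulAction.orbit ↥(K d Q) X₃ ∪ MulAction.orbit ↥(K d Q) X₄ := by
  obtain ⟨τ, hτ, hτd, hτQ⟩ := exists_to_base hd hQ
  have hmem : ∀ {l : List ℕ}, l ∈ QL → τ⁻¹ • qOf l ∈ quartets d := by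
    intro l hl
    rw [← quartets_smul hτ, smul_inv_smul, hτd]
    exact qOf_mem hl
  have hs : ∀ (C : List (ℕ × List ℕ)), (∀ e ∈ C, e.2 ∈ QL) → (C.map Prod.snd).Nodup →
      ∀ X : List ℕ, Orb (sO D) (qOf L0) (qOf X) = qOf '' {l | l ∈ C.map Prod.snd} →
      (MulAction.orbit ↥(K d Q) (τ⁻¹ • qOf X)).ncard = C.length := by
    intro C hC hn X hb
    rw [orbit_eq, Orb_transport hτ hτd hτQ, ncard_transport, hb, ncard_O hC hn]
  refine ⟨τ⁻¹ • qOf X1, hmem X1_mem, τ⁻¹ • qOf X2, hmem X2_mem, τ⁻¹ • qOf X3, hmem X3_mem,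
    τ⁻¹ • qOf X4, hmem X4_mem, ?_, ?_, ?_, ?_, ?_⟩
  · rw [hs C1 (fun e he => (C1_spec e he).2.2.2.2) C1_nodup X1 base_O1, C1_len]
  · rw [hs C2 (fun e he => (C2_spec e he).2.2.2.2) C2_nodup X2 base_O2, C2_len]
  · rw [hs C3 (fun e he => (C3_spec e he).2.2.2.2) C3_nodup X3 base_O3, C3_len]
  · rw [hs C4 (fun e he => (C4_spec e he).2.2.2.2) C4_nodup X4 base_O4, C4_len]
  · simp only [orbit_eq]
    ext y
    simp only [Set.mem_union, Set.mem_singleton_iff]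
    constructor
    · intro hy
      have h1 : τ • y ∈ quartets (sO D) := by
        rw [← hτd]
        exact quartets_smul_of hτ hy
      rw [Orb_transport hτ hτd hτQ, Orb_transport hτ hτd hτQ, Orb_transport hτ hτd hτQ,
        Orb_transport hτ hτd hτQ]
      rcases base_union h1 with h | h | h | h | h
      · left; left; left; left
        rw [← hτQ] at h
        exact smul_left_cancel τ h
      · left; left; left; right
        exact ⟨_, h, by simp⟩
      · left; left; right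
        exact ⟨_, h, by simp⟩
      · left; right
        exact ⟨_, h, by simp⟩
      · right
        exact ⟨_, h, by simp⟩
    · rintro (((((rfl | h) | h) | h) | h))
      · exact hQ
      · exact Orb_mem_quartets (hmem X1_mem) h
      · exact Orb_mem_quartets (hmem X2_mem) h
      · exact Orb_mem_quartets (hmem X3_mem) h
      · exact Orb_mem_quartets (hmem X4_mem) h

end Cfsg.Agent.Lib.Quartet.Orbits
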