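import Cfsg.Agent.Lib.Quartet.AffData
import Mathlib.LinearAlgebra.Matrix.GeneralLinearGroup.Card
import Cfsg.Agent.Lib.Golay.Dodecad
import Cfsg.Agent.Lib.GolayCert.M11

/-!
# The structure of the quartet stabiliser
-/

set_option autoImplicit false

namespace Cfsg.Agent.Lib.Quartet.Stab432

open Cfsg Cfsg.Agent.Lib.Golay.Core Cfsg.Agent.Lib.Golay.Perm Cfsg.Agent.Lib.Golay.Basic
  Cfsg.Agent.Lib.Golay.Dodecad Cfsg.Agent.Lib.Golay.M24 Cfsg.Agent.Lib.Quartet.Data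
  Cfsg.Agent.Lib.Quartet.Basic Cfsg.Agent.Lib.Quartet.Trans Cfsg.Agent.Lib.Quartet.Wit
  Cfsg.Agent.Lib.Quartet.Orbits Cfsg.Agent.Lib.Quartet.AffData
open scoped Pointwise
open Matrix

local notation "sO" => Cfsg.Agent.Lib.Golay.Core.setOf

abbrev V := Fin 2 → ZMod 3
abbrev GL23 := GL (Fin 2) (ZMod 3)

/-- A linear part is determined by the map. -/
theorem mat_unique {α : Type*} {ℓ : V → α} (hℓ : Function.Injective ℓ) {A A' : GL23} {b b' : V}
    (h : ∀ v, ℓ (A.1 *ᵥ v + b) = ℓ (A'.1 *ᵥ v + b')) : A = A' := by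
  have h0 : b = b' := by
    have := hℓ (h 0)
    simpa [Matrix.mulVec_zero] using this
  subst h0
  apply Units.ext
  apply Matrix.mulVec_injective
  funext v
  exact add_right_cancel (hℓ (h v))

/-- A group acting by affine maps on a labelled set maps to the linear group. -/
theorem exists_hom {G α : Type*} [Group G] (ρ : G →* Equiv.Perm α) (ℓ : V → α)
    (hℓ : Function.Injective ℓ)
    (h : ∀ g, ∃ A : GL23, ∃ b : V, ∀ v, ρ g (ℓ v) = ℓ (A.1 *ᵥ v + b)) :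
    ∃ φ : G →* GL23, ∀ g, ∃ b : V, ∀ v, ρ g (ℓ v) = ℓ ((φ g).1 *ᵥ v + b) := by
  choose A b hA using h
  refine ⟨MonoidHom.mk' A ?_, fun g => ⟨b g, hA g⟩⟩
  intro g g'
  apply mat_unique hℓ (b := b (g * g')) (b' := (A g).1 *ᵥ b g' + b g)
  intro v
  rw [← hA, map_mul, Equiv.Perm.mul_apply, hA g', hA g, Units.val_mul, Matrix.mulVec_add,
    Matrix.mulVec_mulVec, add_assoc]

theorem card_GL23 : Nat.card GL23 = 48 := by
  rw [Matrix.card_GL_field]
  simp [Fin.prod_univ_two, ZMod.card]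

/-- The abstract conclusion. -/
theorem final_struct {H : Type*} [Group H] (hc : Nat.card H = 432) (φ : H →* GL23)
    (hs : Function.Surjective φ) :
    ∃ (N : Subgroup H) (_ : N.Normal), Nat.card N = 9 ∧ Nonempty (H ⧸ N ≃* GL23) := by
  refine ⟨φ.ker, inferInstance, ?_, ⟨QuotientGroup.quotientKerEquivOfSurjective φ hs⟩⟩
  have h1 := Subgroup.card_eq_card_quotient_mul_card_subgroup φ.ker
  rw [Nat.card_congr (QuotientGroup.quotientKerEquivOfSurjective φ hs).toEquiv, card_GL23, hc] at h1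
  omega

/-- The labelling by the nine points. -/
noncomputable def lab (v : V) : GolayPt := pt (om (v 0) (v 1))

theorem lab_inj : Function.Injective lab := by
  intro v w h
  have h1 := pt_injOn (om_lt _ _) (om_lt _ _) h
  obtain ⟨h2, h3⟩ := om_inj _ _ _ _ h1
  funext i
  fin_cases i
  · exact h2
  · exact h3

/-- The matrix of an entry. -/
def emat (e : Ent) : Matrix (Fin 2) (Fin 2) (ZMod 3) := !![e.a, e.b; e.c, e.d]

/-- The translation of an entry. -/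
def evec (e : Ent) : V := ![e.e, e.f]

theorem emat_det (e : Ent) : (emat e).det = e.a * e.d - e.b * e.c := by
  rw [emat, Matrix.det_fin_two_of]

/-- The matrix of an entry of the table, as a unit. -/
noncomputable def eunit (e : Ent) (he : e ∈ AT) : GL23 :=
  Matrix.nonsingInvUnit (emat e) (by
    rw [emat_det]
    exact (AT_spec e he).2.2.2.2.isUnit)

theorem eunit_val (e : Ent) (he : e ∈ AT) : (eunit e he).1 = emat e := rfl

theorem AT_apply {e : Ent} (he : e ∈ AT) (v : V) : g e.1 (lab v) = lab (emat e *ᵥ v + evec e) := by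
  obtain ⟨h1, -, -, h2, -⟩ := AT_spec e he
  rw [lab, g_pt (checkAut_valid h1) (om_lt _ _), h2, lab]
  congr 2
  · simp [emat, evec, Matrix.mulVec, dotProduct, Fin.sum_univ_two]
  · simp [emat, evec, Matrix.mulVec, dotProduct, Fin.sum_univ_two]

theorem AT_g_inj {e e' : Ent} (he : e ∈ AT) (he' : e' ∈ AT) (h : g e.1 = g e'.1) : fp e.1 = fp e'.1 := by
  obtain ⟨h1, -⟩ := AT_spec e he
  obtain ⟨h2, -⟩ := AT_spec e' he'
  apply List.map_congr_left
  intro i hi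
  have hi' := List.mem_range.mp hi
  have h3 := congrArg (fun σ : Equiv.Perm GolayPt => σ (pt i)) h
  simp only [g_pt (checkAut_valid h1) hi', g_pt (checkAut_valid h2) hi'] at h3
  exact pt_injOn (valid_img_lt (checkAut_valid h1) hi') (valid_img_lt (checkAut_valid h2) hi') h3

/-- The set of permutations stabilising a dodecad and a family. -/
def KS (d : Finset GolayPt) (Q : Finset (Finset GolayPt)) : Set (Equiv.Perm GolayPt) :=
  {k | k ∈ M24 ∧ k • d = d ∧ k • Q = Q}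

theorem ncard_KS (d : Finset GolayPt) (Q : Finset (Finset GolayPt)) :
    (KS d Q).ncard = Nat.card ↥(K d Q) := by
  rw [← Nat.card_coe_set_eq]
  apply Nat.card_congr
  refine ⟨fun k => ⟨⟨k.1, k.2.1⟩, mem_K_iff.mpr k.2.2⟩,
    fun k => ⟨k.1.1, k.1.2, mem_K_iff.mp k.2⟩, fun k => rfl, fun k => rfl⟩

/-- Order of the stabiliser. -/
theorem card_K {d : Finset GolayPt} (hd : d ∈ dodecads) {Q : Finset (Finset GolayPt)}
    (hQ : Q ∈ quartets d) : Nat.card ↥(K d Q) = 432 := by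
  have h := Cfsg.Agent.Lib.GolayCert.M11.card_inf_of_orbit (MulAction.stabilizer M24 d) Q (quartets d)
    (by
      intro k hk
      have h1 : (k : Equiv.Perm GolayPt) • d = d := MulAction.mem_stabilizer_iff.mp hk
      have := quartets_smul_of k.2 hQ
      rw [h1] at this
      exact this)
    (by
      intro Q' hQ'
      obtain ⟨τ, hτ, h1, h2⟩ := exists_to_base hd hQ
      obtain ⟨τ', hτ', h3, h4⟩ := exists_to_base hd hQ'
      refine ⟨⟨τ'⁻¹ * τ, M24.mul_mem (M24.inv_mem hτ') hτ⟩, MulAction.mem_stabilizer_iff.mpr ?_, ?_⟩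
      · show (τ'⁻¹ * τ) • d = d
        rw [mul_smul, h1, inv_smul_eq_iff, h3]
      · show (τ'⁻¹ * τ) • Q = Q'
        rw [mul_smul, h2, inv_smul_eq_iff, h4])
  rw [ncard_quartets_of hd, card_stab_dodecad hd] at h
  have h' : 95040 = 220 * Nat.card ↥(K d Q) := h
  omega

/-- Every element of the base stabiliser is in the table. -/
theorem mem_table {k : Equiv.Perm GolayPt} (hk : k ∈ KS (sO D) (qOf L0)) : ∃ e ∈ AT, k = g e.1 := by
  classical
  let S : Finset (Equiv.Perm GolayPt) := (AT.map fun e => g e.1).toFinset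
  have hS : S.card = 432 := by
    rw [List.toFinset_card_of_nodup, List.length_map, AT_len]
    refine List.Nodup.map_on ?_ (List.Nodup.of_map _ AT_nodup)
    intro x hx y hy hxy
    exact List.inj_on_of_nodup_map AT_nodup hx hy (AT_g_inj hx hy hxy)
  have hsub : (S : Set (Equiv.Perm GolayPt)) ⊆ KS (sO D) (qOf L0) := by
    intro σ hσ
    obtain ⟨e, he, rfl⟩ := List.mem_map.mp (List.mem_toFinset.mp (Finset.mem_coe.mp hσ))
    obtain ⟨h1, h2, h3, -⟩ := AT_spec e he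
    have hv := checkAut_valid h1
    refine ⟨g_mem_M24 h1, ?_, smul_qOf_eq hv L0_mem L0_mem h3⟩
    rw [smul_setOf hv, h2]
  have heq := Set.eq_of_subset_of_ncard_le hsub (by
    rw [ncard_KS, card_K D_mem (qOf_mem L0_mem), Set.ncard_coe_finset, hS])
  rw [← heq] at hk
  obtain ⟨e, he, rfl⟩ := List.mem_map.mp (List.mem_toFinset.mp (Finset.mem_coe.mp hk))
  exact ⟨e, he, rfl⟩

/-- **The structure of the stabiliser.** -/
theorem exists_surj {d : Finset GolayPt} (hd : d ∈ dodecads) {Q : Finset (Finset GolayPt)}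
    (hQ : Q ∈ quartets d) : ∃ φ : ↥(K d Q) →* GL23, Function.Surjective φ := by
  obtain ⟨τ, hτ, hτd, hτQ⟩ := exists_to_base hd hQ
  let ρ : ↥(K d Q) →* Equiv.Perm GolayPt := M24.subtype.comp (K d Q).subtype
  have hρ : ∀ k : ↥(K d Q), ρ k = ((k : ↥M24) : Equiv.Perm GolayPt) := fun _ => rfl
  let ℓ : V → GolayPt := fun v => τ⁻¹ (lab v)
  have hℓ : Function.Injective ℓ := fun v w h => lab_inj (τ⁻¹.injective h)
  have hconj : ∀ {k : Equiv.Perm GolayPt}, k ∈ KS d Q → τ * k * τ⁻¹ ∈ KS (sO D) (qOf L0) := by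
    rintro k ⟨h1, h2, h3⟩
    refine ⟨M24.mul_mem (M24.mul_mem hτ h1) (M24.inv_mem hτ), ?_, ?_⟩
    · rw [← hτd]
      simp only [mul_smul, inv_smul_smul, h2]
    · rw [← hτQ]
      simp only [mul_smul, inv_smul_smul, h3]
  have hconj' : ∀ {k : Equiv.Perm GolayPt}, k ∈ KS (sO D) (qOf L0) → τ⁻¹ * k * τ ∈ KS d Q := by
    rintro k ⟨h1, h2, h3⟩
    refine ⟨M24.mul_mem (M24.mul_mem (M24.inv_mem hτ) h1) hτ, ?_, ?_⟩
    · simp only [mul_smul, hτd, h2, inv_smul_eq_iff]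
    · simp only [mul_smul, hτQ, h3, inv_smul_eq_iff]
  have haff : ∀ k : ↥(K d Q), ∃ A : GL23, ∃ b : V, ∀ v, ρ k (ℓ v) = ℓ (A.1 *ᵥ v + b) := by
    intro k
    have hk : ((k : ↥M24) : Equiv.Perm GolayPt) ∈ KS d Q := ⟨(k : ↥M24).2, mem_K_iff.mp k.2⟩
    obtain ⟨e, he, hee⟩ := mem_table (hconj hk)
    refine ⟨eunit e he, evec e, fun v => ?_⟩
    have h1 : τ * ((k : ↥M24) : Equiv.Perm GolayPt) * τ⁻¹ = g e.1 := hee
    have h2 : ((k : ↥M24) : Equiv.Perm GolayPt) = τ⁻¹ * g e.1 * τ := by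
      rw [← h1]
      group
    rw [hρ, h2]
    have hi : τ (τ⁻¹ (lab v)) = lab v := by simp
    simp only [ℓ, Equiv.Perm.mul_apply, hi, eunit_val]
    rw [AT_apply he]
  obtain ⟨φ, hφ⟩ := exists_hom ρ ℓ hℓ haff
  refine ⟨φ, fun A => ?_⟩
  have hdet : A.1 0 0 * A.1 1 1 - A.1 0 1 * A.1 1 0 ≠ 0 := by
    have h1 : IsUnit A.1.det := (Matrix.isUnit_iff_isUnit_det _).mp A.isUnit
    rw [Matrix.det_fin_two] at h1
    exact h1.ne_zero
  obtain ⟨e, he, h1, h2, h3, h4⟩ := AT_cover _ _ _ _ hdet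
  have hmat : emat e = A.1 := by
    rw [emat, h1, h2, h3, h4]
    exact (Matrix.eta_fin_two A.1).symm
  obtain ⟨h5, -⟩ := AT_spec e he
  have hk : τ⁻¹ * g e.1 * τ ∈ KS d Q := by
    apply hconj'
    obtain ⟨h5, h6, h7, -⟩ := AT_spec e he
    have hv := checkAut_valid h5
    refine ⟨g_mem_M24 h5, ?_, smul_qOf_eq hv L0_mem L0_mem h7⟩
    rw [smul_setOf hv, h6]
  let k : ↥(K d Q) := ⟨⟨_, hk.1⟩, mem_K_iff.mpr hk.2⟩
  refine ⟨k, ?_⟩
  obtain ⟨b, hb⟩ := hφ k
  apply mat_unique hℓ (b := b) (b' := evec e)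
  intro v
  rw [← hb, hρ, ← hmat]
  show (τ⁻¹ * g e.1 * τ) (τ⁻¹ (lab v)) = _
  have hi : τ (τ⁻¹ (lab v)) = lab v := by simp
  simp only [ℓ, Equiv.Perm.mul_apply, hi]
  rw [AT_apply he]

/-- Transitivity on the dodecad. -/
theorem transitive {d : Finset GolayPt} (hd : d ∈ dodecads) {Q : Finset (Finset GolayPt)}
    (hQ : Q ∈ quartets d) {p q : GolayPt} (hp : p ∈ d) (hq : q ∈ d) :
    ∃ k ∈ K d Q, (k : Equiv.Perm GolayPt) p = q := by
  obtain ⟨τ, hτ, hτd, hτQ⟩ := exists_to_base hd hQ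
  have hmem : ∀ {x}, x ∈ d → ∃ P ∈ PW, g P (pt 0) = τ x := by
    intro x hx
    have h1 : τ x ∈ sO D := by
      rw [← hτd]
      exact Finset.smul_mem_smul_finset hx
    have h2 : idx (τ x) ∈ pts := pts_spec _ (idx_lt _) (mem_setOf.mp h1)
    obtain ⟨P, hP, h3⟩ := PW_cover _ h2
    refine ⟨P, hP, ?_⟩
    obtain ⟨h4, -⟩ := PW_spec P hP
    rw [g_pt (checkAut_valid h4) (by norm_num), h3, pt_idx]
  obtain ⟨P, hP, h1⟩ := hmem hp
  obtain ⟨P', hP', h2⟩ := hmem hq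
  obtain ⟨h3, h4, h5⟩ := PW_spec P hP
  obtain ⟨h3', h4', h5'⟩ := PW_spec P' hP'
  have hv := checkAut_valid h3
  have hv' := checkAut_valid h3'
  have e1 : g P • sO D = sO D := by rw [smul_setOf hv, h4]
  have e2 : g P' • sO D = sO D := by rw [smul_setOf hv', h4']
  have e3 : g P • qOf L0 = qOf L0 := smul_qOf_eq hv L0_mem L0_mem h5
  have e4 : g P' • qOf L0 = qOf L0 := smul_qOf_eq hv' L0_mem L0_mem h5'
  have hm : τ⁻¹ * (g P' * (g P)⁻¹) * τ ∈ M24 :=
    M24.mul_mem (M24.mul_mem (M24.inv_mem hτ) (M24.mul_mem (g_mem_M24 h3') (M24.inv_mem (g_mem_M24 h3)))) hτ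
  refine ⟨⟨_, hm⟩, mem_K_iff.mpr ⟨?_, ?_⟩, ?_⟩
  · show (τ⁻¹ * (g P' * (g P)⁻¹) * τ) • d = d
    simp only [mul_smul, hτd]
    rw [inv_smul_eq_iff.mpr e1.symm, e2, inv_smul_eq_iff, hτd]
  · show (τ⁻¹ * (g P' * (g P)⁻¹) * τ) • Q = Q
    simp only [mul_smul, hτQ]
    rw [inv_smul_eq_iff.mpr e3.symm, e4, inv_smul_eq_iff, hτQ]
  · show (τ⁻¹ * (g P' * (g P)⁻¹) * τ) p = q
    simp only [Equiv.Perm.mul_apply]
    have hi : ∀ (σ : Equiv.Perm GolayPt) (x : GolayPt), σ⁻¹ (σ x) = x := fun σ x => by simp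
    rw [← h1, hi, h2, hi]

end Cfsg.Agent.Lib.Quartet.Stab432
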