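import Cfsg.Agent.Lib.Quartet.Basic

/-!
# Transport of quartets along the group of the code
-/

set_option autoImplicit false

namespace Cfsg.Agent.Lib.Quartet.Trans

open Cfsg Cfsg.Agent.Lib.Golay.Core Cfsg.Agent.Lib.Golay.Perm Cfsg.Agent.Lib.Golay.Basic
  Cfsg.Agent.Lib.Golay.Dodecad Cfsg.Agent.Lib.Quartet.Data Cfsg.Agent.Lib.Quartet.Basic
open scoped Pointwise

local notation "sO" => Cfsg.Agent.Lib.Golay.Core.setOf

theorem hexadsOn_smul_of {τ : Equiv.Perm GolayPt} (hτ : τ ∈ M24) {d h : Finset GolayPt}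
    (hh : h ∈ hexadsOn d) : τ • h ∈ hexadsOn (τ • d) := by
  obtain ⟨h6, o, ho, rfl⟩ := hh
  refine ⟨by rwa [Finset.card_smul_finset], τ • o, smul_mem_octads hτ ho, ?_⟩
  rw [Finset.smul_finset_inter]

theorem hexadsOn_smul {τ : Equiv.Perm GolayPt} (hτ : τ ∈ M24) {d h : Finset GolayPt} :
    τ • h ∈ hexadsOn (τ • d) ↔ h ∈ hexadsOn d := by
  refine ⟨fun hh => ?_, hexadsOn_smul_of hτ⟩
  have := hexadsOn_smul_of (M24.inv_mem hτ) hh
  rwa [inv_smul_smul, inv_smul_smul] at this

theorem quartets_smul_of {τ : Equiv.Perm GolayPt} (hτ : τ ∈ M24) {d : Finset GolayPt}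
    {Q : Finset (Finset GolayPt)} (hQ : Q ∈ quartets d) : τ • Q ∈ quartets (τ • d) := by
  obtain ⟨h1, h2, h3⟩ := hQ
  refine ⟨by rwa [Finset.card_smul_finset], ?_, ?_⟩
  · intro t ht
    obtain ⟨t', ht', rfl⟩ := Finset.mem_smul_finset.mp ht
    obtain ⟨h4, h5⟩ := h2 t' ht'
    exact ⟨by rwa [Finset.card_smul_finset], Finset.smul_finset_subset_smul_finset_iff.mpr h5⟩
  · intro t ht u hu htu
    obtain ⟨t', ht', rfl⟩ := Finset.mem_smul_finset.mp ht
    obtain ⟨u', hu', rfl⟩ := Finset.mem_smul_finset.mp hu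
    have hne : t' ≠ u' := fun e => htu (by rw [e])
    have := hexadsOn_smul_of hτ (h3 t' ht' u' hu' hne)
    rwa [Finset.smul_finset_union] at this

theorem quartets_smul {τ : Equiv.Perm GolayPt} (hτ : τ ∈ M24) {d : Finset GolayPt}
    {Q : Finset (Finset GolayPt)} : τ • Q ∈ quartets (τ • d) ↔ Q ∈ quartets d := by
  refine ⟨fun hh => ?_, quartets_smul_of hτ⟩
  have := quartets_smul_of (M24.inv_mem hτ) hh
  rwa [inv_smul_smul, inv_smul_smul] at this

/-- A dodecad is moved onto the standard one. -/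
theorem exists_to_D {d : Finset GolayPt} (hd : d ∈ dodecads) : ∃ τ ∈ M24, τ • d = sO D :=
  dodecad_transitive hd D_mem

theorem subset_of_hexad {d h : Finset GolayPt} (hh : h ∈ hexadsOn d) : h ⊆ d := by
  obtain ⟨-, o, -, rfl⟩ := hh
  exact Finset.inter_subset_right

theorem eq_qOf_of_list {Q : Finset (Finset GolayPt)} (hQ : Q ∈ quartets (sO D)) {a b : ℕ}
    (ha : a ∈ Tri) (hb : b ∈ Tri) (hat : sO a ∈ Q) (hbt : sO b ∈ Q) {l : List ℕ} (hl : l ∈ QL)
    (hal : a ∈ l) (hbl : b ∈ l)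
    (hall : ∀ c ∈ Tri, c ≠ a → c ≠ b → hex6 a c = true → hex6 b c = true → c ∈ l) : Q = qOf l := by
  obtain ⟨hc, hsub, hun⟩ := hQ
  apply Finset.eq_of_subset_of_card_le
  · intro r hr
    obtain ⟨h3, hrs⟩ := hsub r hr
    obtain ⟨c, hcT, rfl⟩ := exists_tri h3 hrs
    by_cases hca : c = a
    · subst hca
      exact mask_mem_qOf hal
    by_cases hcb : c = b
    · subst hcb
      exact mask_mem_qOf hbl
    have h1 : sO c ≠ sO a := fun h => hca (eq_of_setOf_eq (Tri_lt hcT) (Tri_lt ha) h)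
    have h2 : sO c ≠ sO b := fun h => hcb (eq_of_setOf_eq (Tri_lt hcT) (Tri_lt hb) h)
    have h4 := hex6_of_mem ha hcT (hun _ hat _ hr h1.symm)
    have h5 := hex6_of_mem hb hcT (hun _ hbt _ hr h2.symm)
    exact mask_mem_qOf (hall c hcT hca hcb h4 h5)
  · rw [card_qOf hl, hc]

/-- Two disjoint triples uniting to a hexad extend to exactly one quartet. -/
theorem existsUnique_quartet (d : Finset GolayPt) (hd : d ∈ dodecads) (t u : Finset GolayPt)
    (ht : t.card = 3) (hu : u.card = 3) (htu : Disjoint t u) (hh : t ∪ u ∈ hexadsOn d) :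
    ∃! Q : Finset (Finset GolayPt), Q ∈ quartets d ∧ t ∈ Q ∧ u ∈ Q := by
  obtain ⟨τ, hτ, hτd⟩ := exists_to_D hd
  have h1 : τ • t ∪ τ • u ∈ hexadsOn (sO D) := by
    rw [← Finset.smul_finset_union, ← hτd]
    exact hexadsOn_smul_of hτ hh
  have ht' : τ • t ⊆ sO D := (Finset.subset_union_left).trans (subset_of_hexad h1)
  have hu' : τ • u ⊆ sO D := (Finset.subset_union_right).trans (subset_of_hexad h1)
  obtain ⟨a, ha, hae⟩ := exists_tri (by rwa [Finset.card_smul_finset]) ht'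
  obtain ⟨b, hb, hbe⟩ := exists_tri (by rwa [Finset.card_smul_finset]) hu'
  rw [hae, hbe] at h1
  have hne : a ≠ b := by
    rintro rfl
    have h2 : τ • t = τ • u := by rw [hae, hbe]
    have h3 := smul_left_cancel τ h2
    subst h3
    rw [disjoint_self] at htu
    simp only [Finset.bot_eq_empty] at htu
    subst htu
    simp at ht
  obtain ⟨l, hl, hal, hbl, hall⟩ := exists_list ha hb (hex6_of_mem ha hb h1)
  refine ⟨τ⁻¹ • qOf l, ⟨?_, ?_, ?_⟩, ?_⟩
  · rw [← quartets_smul hτ, smul_inv_smul, hτd]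
    exact qOf_mem hl
  · rw [← Finset.smul_mem_smul_finset_iff τ, smul_inv_smul, hae]
    exact mask_mem_qOf hal
  · rw [← Finset.smul_mem_smul_finset_iff τ, smul_inv_smul, hbe]
    exact mask_mem_qOf hbl
  · rintro Q ⟨hQ, htQ, huQ⟩
    have h2 : τ • Q = qOf l := by
      refine eq_qOf_of_list (a := a) (b := b) (by rw [← hτd]; exact quartets_smul_of hτ hQ) ha hb ?_ ?_ hl hal hbl hall
      · rw [← hae]
        exact Finset.smul_mem_smul_finset htQ
      · rw [← hbe]
        exact Finset.smul_mem_smul_finset huQ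
    rw [← h2, inv_smul_smul]

/-- Quartets of `d` correspond to quartets of the standard dodecad. -/
theorem ncard_quartets_of {d : Finset GolayPt} (hd : d ∈ dodecads) : (quartets d).ncard = 220 := by
  obtain ⟨τ, hτ, hτd⟩ := exists_to_D hd
  have h : quartets (sO D) = (fun Q => τ • Q) '' quartets d := by
    ext Q
    simp only [Set.mem_image]
    constructor
    · intro hQ
      refine ⟨τ⁻¹ • Q, ?_, smul_inv_smul _ _⟩
      rw [← quartets_smul hτ, smul_inv_smul, hτd]
      exact hQ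
    · rintro ⟨Q', hQ', rfl⟩
      rw [← hτd]
      exact quartets_smul_of hτ hQ'
  rw [← ncard_quartets, h, Set.ncard_image_of_injective]
  exact MulAction.injective τ

/-- `g P` acts on families through the masks. -/
theorem smul_qOf_eq {P : ℕ} (hP : validPerm P = true) {l l' : List ℕ} (hl : l ∈ QL) (hl' : l' ∈ QL)
    (h : ∀ a ∈ l, mapMask P a ∈ l') : g P • qOf l = qOf l' := by
  apply Finset.eq_of_subset_of_card_le
  · intro t ht
    obtain ⟨t', ht', rfl⟩ := Finset.mem_smul_finset.mp ht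
    obtain ⟨a, ha, rfl⟩ := mem_qOf.mp ht'
    rw [smul_setOf hP]
    exact mask_mem_qOf (h a ha)
  · rw [Finset.card_smul_finset, card_qOf hl, card_qOf hl']

end Cfsg.Agent.Lib.Quartet.Trans
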